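import Cfsg.Agent.SolvStr.PG2
import Cfsg.Agent.Fgs2.FrobCount

/-! Counting elements of given order. -/

set_option linter.unusedSectionVars false

namespace CF.SolvStr
open Subgroup CF.BG
open scoped commutatorElement Pointwise

/-- the number of elements of order `m` -/
noncomputable abbrev cnt (G : Type*) [Group G] (m : ℕ) : ℕ := Nat.card {g : G // orderOf g = m}

variable {G : Type*} [Group G] [Finite G] {a b g x y z : G} {p q r k m n : ℕ} {P : Subgroup G}

theorem cnt_ne_zero : cnt G m ≠ 0 ↔ ∃ g : G, orderOf g = m := by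
  rw [Nat.card_ne_zero, and_iff_left Subtype.finite, nonempty_subtype]

theorem cnt_one : cnt G 1 = 1 := by simp [cnt]

theorem cnt_prime_ne (hp : p.Prime) (d : p ∣ Nat.card G) : cnt G p ≠ 0 :=
  have := Fact.mk hp
  cnt_ne_zero.2 (exists_prime_orderOf_dvd_card' p d)

theorem totient_dvd_cnt (m : ℕ) : m.totient ∣ cnt G m := by
  refine CF.Fgs2.dvd_ncard_of_fibers {g : G | orderOf g = m} (Set.toFinite _) zpowers _ fun s hs => ?_
  classical
  have := Fintype.ofFinite (zpowers s)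
  have e : {s' ∈ {g : G | orderOf g = m} | zpowers s' = zpowers s} =
      Subtype.val '' {a : zpowers s | orderOf a = m} := Set.ext fun x =>
    ⟨fun h => ⟨⟨x, h.2 ▸ mem_zpowers x⟩, (orderOf_mk _ _).trans h.1, rfl⟩, by
      rintro ⟨a, ha, rfl⟩
      have o : orderOf (a : G) = m := (orderOf_coe a).trans ha
      exact ⟨o, eq_of_card_eq (zpowers_le.2 a.2) (by rw [Nat.card_zpowers, Nat.card_zpowers, o, hs])⟩⟩
  rw [e, Set.ncard_image_of_injective _ Subtype.val_injective, ← IsCyclic.card_orderOf_eq_totient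
    (α := zpowers s) (by rw [← Nat.card_eq_fintype_card, Nat.card_zpowers, hs]), ← Set.ncard_coe_finset]
  simp

theorem even_cnt (h : 2 < m) : Even (cnt G m) := (Nat.totient_even h).trans_dvd (totient_dvd_cnt m)

theorem sum_cnt (hn : n ≠ 0) : ∑ d ∈ n.divisors, cnt G d = Nat.card {x : G // x ^ n = 1} := by
  classical
  have := Fintype.ofFinite G
  simp only [cnt, Nat.card_eq_fintype_card, Fintype.card_subtype]
  exact sum_card_orderOf_eq_card_pow_eq_one hn

theorem dvd_sum_cnt (d : n ∣ Nat.card G) : n ∣ ∑ d ∈ n.divisors, cnt G d :=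
  sum_cnt (G := G) (ne_zero_of_dvd_ne_zero Nat.card_pos.ne' d) ▸ CF.Fgs2.dvd_card_pow_eq_one d

theorem sum_cnt_le (hn : n ≠ 0) : ∑ d ∈ n.divisors, cnt G d ≤ Nat.card G :=
  sum_cnt (G := G) hn ▸ Nat.card_le_card_of_injective _ Subtype.val_injective

theorem sum_div_mul (hp : p.Prime) (h : n.Coprime p) (f : ℕ → ℕ) :
    ∑ d ∈ (n * p).divisors, f d = ∑ d ∈ n.divisors, f d + ∑ d ∈ n.divisors, f (d * p) := by
  rw [Nat.divisors_mul, Finset.mul_def, Finset.sum_image h.mul_injOn_divisors, Finset.sum_product,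
    add_comm, ← Finset.sum_add_distrib]
  exact Finset.sum_congr rfl fun d _ => by rw [hp.sum_divisors, mul_one]

theorem sum_div_four (f : ℕ → ℕ) : ∑ d ∈ (4 : ℕ).divisors, f d = f 1 + f 2 + f 4 := by
  rw [show (4 : ℕ).divisors = {1, 2, 4} by decide]; simp [add_assoc]

theorem eq_zmod (h : n ∣ k) (d : r ∣ n) : (k : ZMod r) = 0 := (ZMod.natCast_eq_zero_iff _ _).2 (d.trans h)

theorem cnt_E1 (hp : p.Prime) (d : p ∣ Nat.card G) : (cnt G p : ZMod p) = -1 := by
  have := eq_zmod (dvd_sum_cnt d) dvd_rfl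
  rw [hp.sum_divisors, cnt_one] at this
  exact eq_neg_of_add_eq_zero_left (by simpa using this)

theorem cnt_E2 (hp : p.Prime) (hq : q.Prime) (pq : p ≠ q) (dp : p ∣ Nat.card G)
    (dq : q ∣ Nat.card G) (d : r ∣ p * q) :
    (1 + cnt G p + cnt G q + cnt G (p * q) : ZMod r) = 0 := by
  have c := (Nat.coprime_primes hp hq).2 pq
  have := eq_zmod (dvd_sum_cnt (c.mul_dvd_of_dvd_of_dvd dp dq)) d
  rw [sum_div_mul hq c, hp.sum_divisors, hp.sum_divisors, cnt_one, one_mul] at this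
  push_cast at this
  linear_combination this

theorem cnt_E3 (hp : p.Prime) (hq : q.Prime) (hr : r.Prime) (pq : p ≠ q) (pr : p ≠ r) (qr : q ≠ r)
    (dp : p ∣ Nat.card G) (dq : q ∣ Nat.card G) (dr : r ∣ Nat.card G) (d : k ∣ p * q * r) :
    (1 + cnt G p + cnt G q + cnt G r + cnt G (p * q) + cnt G (p * r) + cnt G (q * r) +
      cnt G (p * q * r) : ZMod k) = 0 := by
  have c := (Nat.coprime_primes hp hq).2 pq
  have c' := ((Nat.coprime_primes hp hr).2 pr).mul_left ((Nat.coprime_primes hq hr).2 qr)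
  have := eq_zmod (dvd_sum_cnt (c'.mul_dvd_of_dvd_of_dvd (c.mul_dvd_of_dvd_of_dvd dp dq) dr)) d
  simp only [sum_div_mul hr c', sum_div_mul hq c, hp.sum_divisors, cnt_one, one_mul] at this
  push_cast at this
  linear_combination this

theorem cnt_Esq (hp : p.Prime) : (cnt G (p ^ 2) : ZMod p) = 0 := by
  by_cases c : cnt G (p ^ 2) = 0
  · rw [c, Nat.cast_zero]
  obtain ⟨g, e⟩ := cnt_ne_zero.1 c
  have d := e ▸ orderOf_dvd_natCard g
  have := eq_zmod (dvd_sum_cnt d) (dvd_pow_self p two_ne_zero)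
  rw [Nat.sum_divisors_prime_pow hp] at this
  simp only [Finset.sum_range_succ, Finset.range_zero, Finset.sum_empty, pow_zero, pow_one, cnt_one]
    at this
  push_cast at this
  linear_combination this - cnt_E1 hp ((dvd_pow_self p two_ne_zero).trans d)

theorem pow_eq_one_of_cnt (hp : p.Prime) (h : cnt G (p ^ (n + 1)) = 0) (px : PiElt {p} x) :
    x ^ p ^ n = 1 := by
  obtain ⟨k, e⟩ := px.exists_pow (orderOf_pos x).ne'
  refine orderOf_dvd_iff_pow_eq_one.1 (e ▸ pow_dvd_pow p (not_lt.1 fun l => ?_))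
  obtain ⟨y, -, o⟩ := exists_orderOf_of_dvd (e ▸ pow_dvd_pow p l : p ^ (n + 1) ∣ orderOf x)
  exact cnt_ne_zero.2 ⟨y, o⟩ h

theorem pow_dvd_of_cnt (hp : p.Prime) (h : cnt G (p ^ 2) = 0) (d : p ^ k ∣ Nat.card G) :
    p ^ k ∣ cnt G p + 1 := by
  rcases k with _ | k
  · simp
  have := CF.Fgs2.dvd_card_pow_eq_one d
  rw [Nat.card_congr (Equiv.subtypeEquivRight (q := fun x : G => x ^ p = 1) fun x =>
    ⟨fun e => by simpa using pow_eq_one_of_cnt hp h ((piNat_pow_self hp _).dvd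
      (orderOf_dvd_of_pow_eq_one e)), fun e => by rw [pow_succ', pow_mul, e, one_pow]⟩),
    ← sum_cnt hp.ne_zero, hp.sum_divisors, cnt_one] at this
  exact this

theorem exponent_of_cnt (hp : p.Prime) (h : cnt G (p ^ 2) = 0) (k : PiGrp {p} P) (h1 : P ≠ ⊥) :
    Monoid.exponent P = p := by
  have : Nontrivial P := (nontrivial_iff_ne_bot P).2 h1
  exact (Monoid.exponent_eq_prime_iff hp).2 fun g g1 => have := Fact.mk hp; orderOf_eq_prime
    (Subtype.ext (by simpa using pow_eq_one_of_cnt hp h (k.elt g.2))) g1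

theorem dvd_cnt (hp : p.Prime) (k : PiGrp {p} P) (h : ∀ y : G, orderOf y = m → ¬ P ≤ 𝐂₁ y) :
    p ∣ cnt G m :=
  dvd_ncard_conj (K := P) (S := {y | orderOf y = m}) (fun k _ s hs => (orderOf_conj' k s).trans hs)
    fun s hs => by_contra fun c => h s hs (k.le_of_relIndex' ((piNat_compl_single hp).2 c))

theorem two_ne_zmod (hp : p.Prime) (o : p ≠ 2) : (2 : ZMod p) ≠ 0 := fun e =>
  o ((Nat.prime_dvd_prime_iff_eq hp Nat.prime_two).1 ((ZMod.natCast_eq_zero_iff 2 p).1 e))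

theorem one_ne_zmod (hp : p.Prime) : (1 : ZMod p) ≠ 0 := have := Fact.mk hp; one_ne_zero

section inv

theorem exists_inv (h : cnt G 2 = 1) :
    ∃ z : G, orderOf z = 2 ∧ z ∈ center G ∧ ∀ y : G, orderOf y = 2 → y = z := by
  obtain ⟨⟨z, hz⟩, u⟩ := Nat.card_eq_one_iff_exists.1 h
  have k : ∀ y : G, orderOf y = 2 → y = z := fun y hy => congrArg Subtype.val (u ⟨y, hy⟩)
  exact ⟨z, hz, mem_center_iff.2 fun g =>
    mul_inv_eq_iff_eq_mul.1 (k _ ((orderOf_conj' g z).trans hz)), k⟩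

theorem cnt_two_mul (h : cnt G 2 = 1) (o : Odd k) : cnt G (2 * k) = cnt G k := by
  obtain ⟨z, hz, c, u⟩ := exists_inv h
  have cm : ∀ x : G, Commute z x := fun x => (mem_center_iff.1 c x).symm
  have f : ∀ x : G, orderOf x = k → orderOf (z * x) = 2 * k := fun x hx => by
    rw [(cm x).orderOf_mul_eq_mul_orderOf_of_coprime (by rw [hz, hx]; simpa using o), hz, hx]
  refine (Nat.card_congr (Equiv.ofBijective (fun x : {g : G // orderOf g = k} =>
    (⟨z * x.1, f x x.2⟩ : {g : G // orderOf g = 2 * k}))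
    ⟨fun a b e => Subtype.ext (mul_left_cancel (congrArg Subtype.val e)), fun ⟨g, hg⟩ => ?_⟩)).symm
  have e := u (g ^ k) (by rw [orderOf_pow' _ o.pos.ne', hg]; simp [o.pos])
  have z2 : z * z = 1 := by rw [← pow_two, ← hz, pow_orderOf_eq_one]
  have e1 : (z * g) ^ k = 1 := by
    obtain ⟨j, rfl⟩ := o
    rw [(cm g).mul_pow, e, pow_succ, pow_mul, pow_two, z2, one_pow, one_mul, z2]
  have o' := o.of_dvd_nat (orderOf_dvd_of_pow_eq_one e1)
  have := (cm (z * g)).orderOf_mul_eq_mul_orderOf_of_coprime (by rw [hz]; simpa using o')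
  rw [← mul_assoc, z2, one_mul, hg, hz] at this
  exact ⟨⟨z * g, by omega⟩, Subtype.ext (by simp [← mul_assoc, z2])⟩

theorem cnt_four (h : cnt G 2 = 1) (d : 4 ∣ Nat.card G) : cnt G 4 % 4 = 2 := by
  have := dvd_sum_cnt d
  rw [sum_div_four, cnt_one, h] at this
  omega

theorem cnt_E4 (h : cnt G 2 = 1) (d : 4 ∣ Nat.card G) (hp : p.Prime) (o : p ≠ 2)
    (dp : p ∣ Nat.card G) : (cnt G 4 + cnt G (4 * p) : ZMod p) = 0 := by
  have c : (4 : ℕ).Coprime p := ((Nat.coprime_primes Nat.prime_two hp).2 o.symm).pow_left 2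
  have := eq_zmod (dvd_sum_cnt (c.mul_dvd_of_dvd_of_dvd d dp)) (dvd_mul_left p 4)
  rw [sum_div_mul hp c, sum_div_four, sum_div_four, cnt_one, h, one_mul,
    cnt_two_mul h (hp.odd_of_ne_two o)] at this
  push_cast at this
  linear_combination this - 2 * cnt_E1 hp dp

theorem cnt_E5 (h : cnt G 2 = 1) (d : 4 ∣ Nat.card G) (hp : p.Prime) (o : p ≠ 2)
    (dp : p ∣ Nat.card G) (hq : q.Prime) (o' : q ≠ 2) (dq : q ∣ Nat.card G) (pq : p ≠ q) :
    (cnt G (4 * q) + cnt G (4 * p * q) : ZMod p) = 0 := by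
  have c : (4 : ℕ).Coprime p := ((Nat.coprime_primes Nat.prime_two hp).2 o.symm).pow_left 2
  have c' : (4 * p).Coprime q := (((Nat.coprime_primes Nat.prime_two hq).2 o'.symm).pow_left 2).mul_left
    ((Nat.coprime_primes hp hq).2 pq)
  have := eq_zmod (dvd_sum_cnt (c'.mul_dvd_of_dvd_of_dvd (c.mul_dvd_of_dvd_of_dvd d dp) dq))
    ((dvd_mul_left p 4).mul_right q)
  simp only [sum_div_mul hq c', sum_div_mul hp c, sum_div_four, cnt_one, h, one_mul, mul_assoc 2,
    cnt_two_mul h (hp.odd_of_ne_two o), cnt_two_mul h (hq.odd_of_ne_two o'),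
    cnt_two_mul h ((hp.odd_of_ne_two o).mul (hq.odd_of_ne_two o'))] at this
  push_cast at this
  linear_combination this - 2 * cnt_E2 hp hq pq dp dq (dvd_mul_right p q) - cnt_E4 h d hp o dp

end inv

theorem cnt_mem (k : ℕ) :
    cnt G k = 0 ∨ cnt G k ∈ (fun m : ℕ => cnt G m) '' Set.range (orderOf : G → ℕ) :=
  or_iff_not_imp_left.2 fun c => ⟨k, cnt_ne_zero.1 c, rfl⟩

theorem exists_vals (h : ((fun m : ℕ => cnt G m) '' Set.range (orderOf : G → ℕ)).ncard = 3) :
    ∃ m n, (∀ k, 2 < k → cnt G k = 0 ∨ cnt G k = m ∨ cnt G k = n) ∧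
      (cnt G 2 = 0 ∨ cnt G 2 = 1 ∨ cnt G 2 = m ∨ cnt G 2 = n) := by
  obtain ⟨m, n, h⟩ : ∃ m n, ∀ k, cnt G k = 0 ∨ cnt G k = 1 ∨ cnt G k = m ∨ cnt G k = n := by
    obtain ⟨a, b, c, -, -, -, e⟩ := Set.ncard_eq_three.1 h
    have k := fun k => e ▸ cnt_mem (G := G) k
    have k1 := k 1
    simp only [cnt_one, Set.mem_insert_iff, Set.mem_singleton_iff] at k k1
    rcases k1 with k1 | rfl | rfl | rfl
    exacts [absurd k1 one_ne_zero, ⟨b, c, k⟩, ⟨a, c, fun j => by have := k j; tauto⟩,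
      ⟨a, b, fun j => by have := k j; tauto⟩]
  exact ⟨m, n, fun k l => (h k).imp_right (·.resolve_left fun e =>
    Nat.not_even_one (e ▸ even_cnt l)), h 2⟩

end CF.SolvStr
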